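import Cfsg.Agent.H671.GraphBase
import Cfsg.Agent.H677.DG.Tri42
import Cfsg.Agent.H664.R1.U3Graph

/-!
# The graph facts of the unitary groups (helper677)

`gf_un` : `PSU_n(q)`, `n ≥ 4`, without exception; `gf_u3` : `PSU_3(q)`, `q ≥ 3`; `gf_psu` : all of them. The triangle of
`PSU_3(4)` is a hypothesis (`T34`).
-/

set_option autoImplicit false

namespace Cfsg.Agent.H677.PSURow

open Cfsg Cfsg.Agent.H671.H5 Cfsg.Agent.H671.GraphAsm Cfsg.Agent.H113.PSU.Main Cfsg.Agent.H664.R1.U3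

universe u

/-- `PSU_n(q)`, `n ≥ 4`. -/
theorem gf_un {S : Type u} [Group S] (h : IsUn S) : GFacts S where
  conn := conn_un h
  ind := fun _ hp _ hq _ hr h1 h2 h3 => ind_un h hp hq hr h1 h2 h3
  tri := Tri42.tri_un h

/-- The triangle of `PSU_3(4)`. -/
def T34 : Prop := ∀ (S : Type u) [Group S] (F : Type) [Field F] [Fintype F], Fintype.card F = 4 ^ 2 →
  Nonempty (S ≃* PSU 3 F 4) → ∃ a b c : ℕ, Adj a b S ∧ Adj b c S ∧ Adj a c S

/-- `PSU_3(q)`. -/
theorem gf_u3 (h34 : T34.{u}) {S : Type u} [Group S] [Finite S] (h : IsU3 S) : GFacts S := by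
  obtain ⟨F, _, _, q, hF, hq, ⟨e⟩⟩ := h
  have h2 : 2 ≤ q := LieClassical.HermBasic.two_le hF
  obtain ⟨p, D⟩ := exists_DD hF (by omega : 3 ≤ q) e
  refine ⟨D.conn, fun a ha b hb c hc h1 h2 h3 => D.indep ha hb hc h1 h2 h3, ?_⟩
  by_cases h4 : q = 4
  · subst h4
    exact h34 S F hF ⟨e⟩
  rcases Nat.even_or_odd q with ho | ho
  · exact D.tri_even ho h4
  · obtain ⟨h1, r, h2, h3⟩ := D.tri_odd ho
    exact ⟨p, 2, r, h1, h2, h3⟩

/-- `PSU_n(q)`. -/
theorem gf_psu (h34 : T34.{u}) (S : Type u) [Group S] [Finite S] (h : IsPSU S) : GFacts S := by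
  rcases shape h with h | h
  · exact gf_u3 h34 h
  · exact gf_un h

end Cfsg.Agent.H677.PSURow
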