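import Cfsg.Agent.H677.DG.PSURow
import Cfsg.Agent.H664.R1.U3T34

/-!
# The row `PSU` of the degree graph assembly (helper677), no hypotheses
-/

set_option autoImplicit false

open Cfsg

namespace Cfsg.Agent.H677.PSURow

universe u

theorem t34 : T34.{u} := fun S _ F _ _ h hn => H664.R1.U3.t34 S F h hn

theorem gf_psu' (S : Type u) [Group S] [Finite S] (h : IsPSU S) :
    H671.GraphAsm.GFacts S := gf_psu t34 S h

end Cfsg.Agent.H677.PSURow
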